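import Mathlib
import Cfsg.Agent.Lib.HSR3.R.Cert
import Cfsg.Agent.Lib.HSR3.R.Eq0
import Cfsg.Agent.Lib.HSR3.R.Set0

/-! generated by tools/cgt -/

set_option autoImplicit false
set_option maxRecDepth 100000
set_option Elab.async false

namespace CfsgLib.HSR3.R

open CfsgLib.Comput

theorem eqs_of_WM {G : Type*} [Group G] {g : ℕ → G} (h : WM g (stepT 22 5 W) (idTab 22 5)) : Eqs g where
  l4 := (h.allHold e_l4_0)
  x4 := (h.allHold e_x4_0)
  l3 := (h.allHold e_l3_0)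
  x3 := (h.allHold e_x3_0)
  l2 := (h.allHold e_l2_0)
  x2 := (h.allHold e_x2_0)
  l1 := (h.allHold e_l1_0)
  x1 := (h.allHold e_x1_0)
  l0 := (h.allHold e_l0_0)
  x0 := (h.allHold e_x0_0)
  xd := (h.allHold e_xd_0)

theorem eqs_prod {G G' : Type*} [Group G] [Group G'] {g : ℕ → G} {g' : ℕ → G'} (E : Eqs g) (E' : Eqs g') :
    Eqs (fun m => (g m, g' m)) where
  l4 := E.l4.prod E'.l4
  x4 := E.x4.prod E'.x4
  l3 := E.l3.prod E'.l3
  x3 := E.x3.prod E'.x3
  l2 := E.l2.prod E'.l2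
  x2 := E.x2.prod E'.x2
  l1 := E.l1.prod E'.l1
  x1 := E.x1.prod E'.x1
  l0 := E.l0.prod E'.l0
  x0 := E.x0.prod E'.x0
  xd := E.xd.prod E'.xd

section
variable {G Ω : Type*} [Group G] [MulAction G Ω] {g : ℕ → G} {pt : ℕ → Ω}

theorem inA_4 (E : Eqs g) : InA g L4.B (cl g (L4.ts ++ L4.hs)) :=
  inA_up (A := L4.A) (InA.zero g _) L4.ts X4 E.x4 (by decide +kernel)

theorem good_4 (M : SM g 22 pt (stepN W)) (E : Eqs g) : L4.Good g pt :=
  L4.sound M (InA.zero g _) (inA_4 E) (card_cl_nil g) E.l4 s_4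

theorem card_4 (M : SM g 22 pt (stepN W)) (E : Eqs g) : Nat.card (cl g (L4.ts ++ L4.hs)) = 16 :=
  (good_4 M E).card (card_cl_nil g)

theorem inA_3 (E : Eqs g) : InA g L3.B (cl g (L3.ts ++ L3.hs)) :=
  inA_up (A := L3.A) (inA_4 E) L3.ts X3 E.x3 (by decide +kernel)

theorem good_3 (M : SM g 22 pt (stepN W)) (E : Eqs g) : L3.Good g pt :=
  L3.sound M (inA_4 E) (inA_3 E) (card_4 M E) E.l3 s_3

theorem card_3 (M : SM g 22 pt (stepN W)) (E : Eqs g) : Nat.card (cl g (L3.ts ++ L3.hs)) = 48 :=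
  (good_3 M E).card (card_4 M E)

theorem inA_2 (E : Eqs g) : InA g L2.B (cl g (L2.ts ++ L2.hs)) :=
  inA_up (A := L2.A) (inA_3 E) L2.ts X2 E.x2 (by decide +kernel)

theorem good_2 (M : SM g 22 pt (stepN W)) (E : Eqs g) : L2.Good g pt :=
  L2.sound M (inA_3 E) (inA_2 E) (card_3 M E) E.l2 s_2

theorem card_2 (M : SM g 22 pt (stepN W)) (E : Eqs g) : Nat.card (cl g (L2.ts ++ L2.hs)) = 960 :=
  (good_2 M E).card (card_3 M E)

theorem inA_1 (E : Eqs g) : InA g L1.B (cl g (L1.ts ++ L1.hs)) :=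
  inA_up (A := L1.A) (inA_2 E) L1.ts X1 E.x1 (by decide +kernel)

theorem good_1 (M : SM g 22 pt (stepN W)) (E : Eqs g) : L1.Good g pt :=
  L1.sound M (inA_2 E) (inA_1 E) (card_2 M E) E.l1 s_1

theorem card_1 (M : SM g 22 pt (stepN W)) (E : Eqs g) : Nat.card (cl g (L1.ts ++ L1.hs)) = 20160 :=
  (good_1 M E).card (card_2 M E)

theorem inA_0 (E : Eqs g) : InA g L0.B (cl g (L0.ts ++ L0.hs)) :=
  inA_up (A := L0.A) (inA_1 E) L0.ts X0 E.x0 (by decide +kernel)

theorem good_0 (M : SM g 22 pt (stepN W)) (E : Eqs g) : L0.Good g pt :=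
  L0.sound M (inA_1 E) (inA_0 E) (card_1 M E) E.l0 s_0

theorem card_0 (M : SM g 22 pt (stepN W)) (E : Eqs g) : Nat.card (cl g (L0.ts ++ L0.hs)) = 443520 :=
  (good_0 M E).card (card_1 M E)

theorem inA_top (E : Eqs g) : InA g 0xfffff (cl g top) := XD.sound' (inA_cl g top) E.xd (by decide +kernel)

theorem top_eq (E : Eqs g) : cl g top = cl g (L0.ts ++ L0.hs) := cl_eq_of_inA (inA_top E) (inA_0 E) (by decide +kernel)

theorem card (M : SM g 22 pt (stepN W)) (E : Eqs g) : Nat.card (cl g top) = 443520 := by rw [top_eq E]; exact card_0 M E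

theorem base_faith (M : SM g 22 pt (stepN W)) (E : Eqs g) (x : G) (hx : x ∈ cl g (L0.ts ++ L0.hs)) (h : ∀ a ∈ [0, 1, 2, 4, 3], x • pt a = pt a) : x = 1 := by
  have h0 : x ∈ cl g L0.hs := (good_0 M E).1.stab x hx 1 (Subgroup.one_mem _) (by rw [one_smul]; exact h 0 (by decide))
  have h1 : x ∈ cl g L1.hs := (good_1 M E).1.stab x h0 1 (Subgroup.one_mem _) (by rw [one_smul]; exact h 1 (by decide))
  have h2 : x ∈ cl g L2.hs := (good_2 M E).1.stab x h1 1 (Subgroup.one_mem _) (by rw [one_smul]; exact h 2 (by decide))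
  have h3 : x ∈ cl g L3.hs := (good_3 M E).1.stab x h2 1 (Subgroup.one_mem _) (by rw [one_smul]; exact h 4 (by decide))
  have h4 : x ∈ cl g L4.hs := (good_4 M E).1.stab x h3 1 (Subgroup.one_mem _) (by rw [one_smul]; exact h 3 (by decide))
  exact Subgroup.mem_bot.1 (cl_nil g ▸ h4)

end

theorem M : SM (permG 22 W) 22 (finPt 22) (stepN W) := SM.perm W_ok (by norm_num)

theorem E : Eqs (permG 22 W) := eqs_of_WM (WM.perm W_ok (by norm_num))

theorem card_perm : Nat.card (cl (permG 22 W) top) = 443520 := card M E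


end CfsgLib.HSR3.R
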